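import Cfsg.Agent.H540.ClassNum
import Cfsg.Agent.H615.AltMult

/-!
# S4766, D4: the number of classes of a subgroup of `A_n` with a long orbit
-/

set_option autoImplicit false

namespace Cfsg.Agent.H957.AN.D4

open Cfsg.Agent.H540.ClassNum

/-! ### the number of partitions -/

/-- the number of partitions of `n` with parts at most `k` (`f` is fuel) -/
def pk : ℕ → ℕ → ℕ → ℕ
  | 0, _, _ => 0
  | _ + 1, 0, n => if n = 0 then 1 else 0
  | f + 1, k + 1, n => pk f k n + if k + 1 ≤ n then pk f (k + 1) (n - (k + 1)) else 0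

theorem pk_cover (f : ℕ) : ∀ k n : ℕ, k + n < f → ∃ T : Finset (Multiset ℕ), T.card ≤ pk f k n ∧
    ∀ s : Multiset ℕ, (∀ x ∈ s, 1 ≤ x ∧ x ≤ k) → s.sum = n → s ∈ T := by
  classical
  induction f with
  | zero => intro k n h; omega
  | succ f ih =>
    intro k n h
    match k with
    | 0 =>
      by_cases hn : n = 0
      · refine ⟨{0}, by simp [pk, hn], ?_⟩
        intro s hs _
        have h1 : s = 0 := by
          apply Multiset.eq_zero_of_forall_notMem
          intro x hx
          have := hs x hx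
          omega
        rw [h1]
        exact Finset.mem_singleton_self _
      · refine ⟨∅, by simp, ?_⟩
        intro s hs hsum
        have h1 : s = 0 := by
          apply Multiset.eq_zero_of_forall_notMem
          intro x hx
          have := hs x hx
          omega
        rw [h1, Multiset.sum_zero] at hsum
        exact absurd hsum.symm hn
    | k + 1 =>
      obtain ⟨T1, hT1, hT1'⟩ := ih k n (by omega)
      by_cases hkn : k + 1 ≤ n
      · obtain ⟨T2, hT2, hT2'⟩ := ih (k + 1) (n - (k + 1)) (by omega)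
        refine ⟨T1 ∪ T2.image (fun s => (k + 1) ::ₘ s), ?_, ?_⟩
        · refine (Finset.card_union_le _ _).trans ?_
          rw [pk, if_pos hkn]
          exact add_le_add hT1 (Finset.card_image_le.trans hT2)
        · intro s hs hsum
          rw [Finset.mem_union]
          by_cases hm : k + 1 ∈ s
          · right
            rw [Finset.mem_image]
            have h1 := Multiset.cons_erase hm
            refine ⟨s.erase (k + 1), hT2' _ (fun x hx => hs x (Multiset.mem_of_mem_erase hx)) ?_, h1⟩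
            rw [← h1, Multiset.sum_cons] at hsum
            omega
          · left
            refine hT1' s (fun x hx => ?_) hsum
            have h1 := hs x hx
            have h2 : x ≠ k + 1 := fun h => hm (h ▸ hx)
            omega
      · refine ⟨T1, ?_, ?_⟩
        · rw [pk, if_neg hkn]
          exact hT1
        · intro s hs hsum
          refine hT1' s (fun x hx => ?_) hsum
          have h1 := hs x hx
          have h2 := Multiset.single_le_sum (fun _ _ => Nat.zero_le _) x hx
          omega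

theorem card_partition_le (n f : ℕ) (hf : n + n < f) : Fintype.card (Nat.Partition n) ≤ pk f n n := by
  classical
  obtain ⟨T, hT, hT'⟩ := pk_cover f n n hf
  refine le_trans ?_ hT
  rw [← Fintype.card_coe]
  refine Fintype.card_le_of_injective (fun π : Nat.Partition n => (⟨π.parts, ?_⟩ : T)) ?_
  · refine hT' _ (fun x hx => ⟨π.parts_pos hx, ?_⟩) π.parts_sum
    have h2 := Multiset.single_le_sum (fun _ _ => Nat.zero_le _) x hx
    rw [π.parts_sum] at h2
    exact h2
  · intro π π' h
    exact Nat.Partition.ext (congrArg Subtype.val h)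

theorem cp_11 : Fintype.card (Nat.Partition 11) ≤ 56 := (card_partition_le 11 23 (by norm_num)).trans (by decide +kernel)
theorem cp_12 : Fintype.card (Nat.Partition 12) ≤ 77 := (card_partition_le 12 25 (by norm_num)).trans (by decide +kernel)
theorem cp_13 : Fintype.card (Nat.Partition 13) ≤ 101 := (card_partition_le 13 27 (by norm_num)).trans (by decide +kernel)
theorem cp_14 : Fintype.card (Nat.Partition 14) ≤ 135 := (card_partition_le 14 29 (by norm_num)).trans (by decide +kernel)
theorem cp_15 : Fintype.card (Nat.Partition 15) ≤ 176 := (card_partition_le 15 31 (by norm_num)).trans (by decide +kernel)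

/-- what is needed of the partition function -/
structure PF (pa : ℕ → ℕ) : Prop where
  h11 : pa 11 ≤ 56
  h12 : pa 12 ≤ 77
  h13 : pa 13 ≤ 101
  h14 : pa 14 ≤ 135
  h15 : pa 15 ≤ 176
  step : ∀ n, pa (n + 2) ≤ pa (n + 1) + pa n

theorem pf : PF fun n => Fintype.card (Nat.Partition n) :=
  ⟨cp_11, cp_12, cp_13, cp_14, cp_15, Cfsg.Agent.H615.AltMult.card_partition_step⟩

variable {pa : ℕ → ℕ}

theorem PF.le_step (hp : PF pa) {n T S : ℕ} (h1 : pa (n + 1) * (8 * S) ≤ 135 * (13 * T)) (h2 : pa n * S ≤ 135 * T) :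
    pa (n + 2) * (64 * S) ≤ 135 * (169 * T) := by
  have h4 : pa (n + 2) * S ≤ (pa (n + 1) + pa n) * S := Nat.mul_le_mul_right _ (hp.step n)
  rw [add_mul] at h4
  have h5 : pa (n + 1) * S * 8 ≤ 135 * T * 13 := by
    calc pa (n + 1) * S * 8 = pa (n + 1) * (8 * S) := by ring
      _ ≤ 135 * (13 * T) := h1
      _ = 135 * T * 13 := by ring
  calc pa (n + 2) * (64 * S) = pa (n + 2) * S * 64 := by ring
    _ ≤ 135 * T * 169 := by omega
    _ = 135 * (169 * T) := by ring

theorem PF.le_aux (hp : PF pa) (j : ℕ) :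
    pa (14 + j) * 8 ^ j ≤ 135 * 13 ^ j ∧ pa (14 + j + 1) * (8 * 8 ^ j) ≤ 135 * (13 * 13 ^ j) := by
  induction j with
  | zero =>
    have h14 := hp.h14
    have h15 := hp.h15
    norm_num
    omega
  | succ j ih =>
    obtain ⟨h1, h2⟩ := ih
    refine ⟨?_, ?_⟩
    · rw [pow_succ', pow_succ']
      exact h2
    · rw [pow_succ', pow_succ']
      have h3 := hp.le_step h2 h1
      calc pa (14 + (j + 1) + 1) * (8 * (8 * 8 ^ j)) = pa (14 + j + 2) * (64 * 8 ^ j) := by
            rw [show 14 + (j + 1) + 1 = 14 + j + 2 by ring]; ring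
        _ ≤ _ := h3
        _ = _ := by ring

/-! ### numerical inequalities -/

theorem choose_step_left {w m : ℕ} (h : w + 1 ≤ m) : 2 * (w + m).choose w ≤ (w + 1 + m).choose (w + 1) := by
  have h1 : (w + m + 1) * (w + m).choose w = (w + 1 + m).choose (w + 1) * (w + 1) := by
    have := Nat.add_one_mul_choose_eq (w + m) w
    rwa [show w + m + 1 = w + 1 + m by ring] at this ⊢
  have h2 : 2 * (w + 1) ≤ w + m + 1 := by omega
  have h3 : 2 * (w + 1) * (w + m).choose w ≤ (w + m + 1) * (w + m).choose w := Nat.mul_le_mul_right _ h2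
  rw [h1] at h3
  have h4 : (2 * (w + m).choose w) * (w + 1) ≤ (w + 1 + m).choose (w + 1) * (w + 1) := by
    calc (2 * (w + m).choose w) * (w + 1) = 2 * (w + 1) * (w + m).choose w := by ring
      _ ≤ _ := h3
  exact Nat.le_of_mul_le_mul_right h4 (by omega)

/-- the inequality -/
def Q (pa : ℕ → ℕ) (w m : ℕ) : Prop := 2 ^ w * pa m < (w + m).choose w

theorem Q_step {w m : ℕ} (h : w + 1 ≤ m) (hQ : Q pa w m) : Q pa (w + 1) m := by
  unfold Q at hQ ⊢
  calc 2 ^ (w + 1) * pa m = 2 * (2 ^ w * pa m) := by ring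
    _ < 2 * (w + m).choose w := by omega
    _ ≤ _ := choose_step_left h

theorem Q_mono {w0 w m : ℕ} (h0 : w0 ≤ w) (h : w ≤ m) (hQ : Q pa w0 m) : Q pa w m := by
  induction w, h0 using Nat.le_induction with
  | base => exact hQ
  | succ w hw ih => exact Q_step h (ih (by omega))

theorem choose_right (w m : ℕ) : (w + (m + 1)).choose w * (m + 1) = (w + m).choose w * (w + m + 1) := by
  have h1 := Nat.add_one_mul_choose_eq (w + m) m
  have h2 : (w + m).choose m = (w + m).choose w := Nat.choose_symm_add.symm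
  have h3 : (w + m + 1).choose (m + 1) = (w + (m + 1)).choose w := by
    rw [show w + m + 1 = w + (m + 1) by ring]
    exact Nat.choose_symm_add.symm
  rw [h2, h3] at h1
  rw [← h1, mul_comm]

theorem choose_left (w m : ℕ) : (w + 1 + m).choose (w + 1) * (w + 1) = (w + m).choose w * (w + m + 1) := by
  have h1 := Nat.add_one_mul_choose_eq (w + m) w
  rw [show w + 1 + m = w + m + 1 by ring, ← h1, mul_comm]

theorem choose_four (w m : ℕ) : (w + 1 + (m + 3)).choose (w + 1) * ((w + 1) * (m + 1) * (m + 2) * (m + 3)) =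
    (w + m).choose w * ((w + m + 1) * (w + m + 2) * (w + m + 3) * (w + m + 4)) := by
  have h1 := choose_left w m
  have h2 := choose_right (w + 1) m
  have h3 := choose_right (w + 1) (m + 1)
  have h4 := choose_right (w + 1) (m + 2)
  have e3 : m + 1 + 1 = m + 2 := by ring
  have e4 : m + 2 + 1 = m + 3 := by ring
  rw [e3] at h3
  rw [e4] at h4
  calc (w + 1 + (m + 3)).choose (w + 1) * ((w + 1) * (m + 1) * (m + 2) * (m + 3)) =
      (w + 1 + (m + 3)).choose (w + 1) * (m + 3) * (m + 2) * (m + 1) * (w + 1) := by ring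
    _ = (w + 1 + (m + 2)).choose (w + 1) * (m + 2) * (w + 1 + (m + 2) + 1) * (m + 1) * (w + 1) := by
        rw [h4]; ring
    _ = (w + 1 + (m + 1)).choose (w + 1) * (m + 1) * (w + 1 + (m + 1) + 1) * (w + 1 + (m + 2) + 1) * (w + 1) := by
        rw [h3]; ring
    _ = (w + 1 + m).choose (w + 1) * (w + 1) * (w + 1 + m + 1) * (w + 1 + (m + 1) + 1) * (w + 1 + (m + 2) + 1) := by
        rw [h2]; ring
    _ = _ := by rw [h1]; ring

/-- the inequality with the exponential bound: `m = 14 + j` -/
def R (w j : ℕ) : Prop := 2 ^ w * (135 * 13 ^ j) < (w + (14 + j)).choose w * 8 ^ j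

theorem Q_of_R (hp : PF pa) {w j : ℕ} (h : R w j) : Q pa w (14 + j) := by
  unfold R at h
  unfold Q
  have h1 : 2 ^ w * (pa (14 + j) * 8 ^ j) ≤ 2 ^ w * (135 * 13 ^ j) := Nat.mul_le_mul_left _ (hp.le_aux j).1
  have h2 := lt_of_le_of_lt h1 h
  rw [← mul_assoc] at h2
  exact Nat.lt_of_mul_lt_mul_right h2

theorem R_step {w j : ℕ} (hpoly : 2197 * ((w + 1) * (14 + j + 1) * (14 + j + 2) * (14 + j + 3)) ≤
    256 * ((w + (14 + j) + 1) * (w + (14 + j) + 2) * (w + (14 + j) + 3) * (w + (14 + j) + 4))) (h : R w j) :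
    R (w + 1) (j + 3) := by
  unfold R at h ⊢
  have h4 := choose_four w (14 + j)
  set A := (w + (14 + j)).choose w with hA
  have e1 : 14 + (j + 3) = 14 + j + 3 := by ring
  rw [e1]
  set B := (w + 1 + (14 + j + 3)).choose (w + 1) with hB
  set X := (w + 1) * (14 + j + 1) * (14 + j + 2) * (14 + j + 3) with hX
  set Y := (w + (14 + j) + 1) * (w + (14 + j) + 2) * (w + (14 + j) + 3) * (w + (14 + j) + 4) with hY
  have hXpos : 0 < X := by positivity
  -- multiply by `X`
  refine Nat.lt_of_mul_lt_mul_right (a := X) ?_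
  calc 2 ^ (w + 1) * (135 * 13 ^ (j + 3)) * X = (2 ^ w * (135 * 13 ^ j)) * (2 * (2197 * X)) := by ring
    _ ≤ (2 ^ w * (135 * 13 ^ j)) * (2 * (256 * Y)) := Nat.mul_le_mul_left _ (Nat.mul_le_mul_left _ hpoly)
    _ < (A * 8 ^ j) * (2 * (256 * Y)) := by
        refine Nat.mul_lt_mul_of_pos_right h ?_
        positivity
    _ = (A * Y) * 8 ^ (j + 3) := by ring
    _ = (B * X) * 8 ^ (j + 3) := by rw [h4]
    _ = B * 8 ^ (j + 3) * X := by ring

theorem R_all (t : ℕ) : R (6 + t) (2 + 3 * t) ∧ R (6 + t) (3 + 3 * t) ∧ R (6 + t) (4 + 3 * t) := by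
  induction t with
  | zero => refine ⟨?_, ?_, ?_⟩ <;> (unfold R; decide +kernel)
  | succ t ih =>
    obtain ⟨h1, h2, h3⟩ := ih
    refine ⟨?_, ?_, ?_⟩
    · have := R_step (w := 6 + t) (j := 2 + 3 * t) (by ring_nf; omega) h1
      exact this
    · have := R_step (w := 6 + t) (j := 3 + 3 * t) (by ring_nf; omega) h2
      exact this
    · have := R_step (w := 6 + t) (j := 4 + 3 * t) (by ring_nf; omega) h3
      exact this

theorem Q_all (hp : PF pa) {w m : ℕ} (h20 : 20 ≤ w + m) (h3 : m ≤ 3 * w) (hwm : w < m) : Q pa w m := by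
  have hb : ∀ w0 m0 b : ℕ, pa m0 ≤ b → 2 ^ w0 * b < (w0 + m0).choose w0 → Q pa w0 m0 := by
    intro w0 m0 b h1 h2
    exact lt_of_le_of_lt (Nat.mul_le_mul_left _ h1) h2
  by_cases h16 : 16 ≤ m
  · -- `m = 3 (6 + t) - 2, - 1, - 0`
    obtain ⟨t, ht⟩ : ∃ t, m = 16 + 3 * t ∨ m = 17 + 3 * t ∨ m = 18 + 3 * t := ⟨(m - 16) / 3, by omega⟩
    obtain ⟨r1, r2, r3⟩ := R_all t
    rcases ht with h | h | h
    · refine Q_mono (w0 := 6 + t) (by omega) hwm.le ?_
      have := Q_of_R hp r1
      rwa [show 14 + (2 + 3 * t) = m by omega] at this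
    · refine Q_mono (w0 := 6 + t) (by omega) hwm.le ?_
      have := Q_of_R hp r2
      rwa [show 14 + (3 + 3 * t) = m by omega] at this
    · refine Q_mono (w0 := 6 + t) (by omega) hwm.le ?_
      have := Q_of_R hp r3
      rwa [show 14 + (4 + 3 * t) = m by omega] at this
  · have h11 : m = 11 ∨ m = 12 ∨ m = 13 ∨ m = 14 ∨ m = 15 := by omega
    rcases h11 with rfl | rfl | rfl | rfl | rfl
    · exact Q_mono (w0 := 9) (by omega) hwm.le (hb 9 11 56 hp.h11 (by decide +kernel))
    · exact Q_mono (w0 := 8) (by omega) hwm.le (hb 8 12 77 hp.h12 (by decide +kernel))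
    · exact Q_mono (w0 := 7) (by omega) hwm.le (hb 7 13 101 hp.h13 (by decide +kernel))
    · exact Q_mono (w0 := 6) (by omega) hwm.le (hb 6 14 135 hp.h14 (by decide +kernel))
    · exact Q_mono (w0 := 5) (by omega) hwm.le (hb 5 15 176 hp.h15 (by decide +kernel))

/-! ### conjugacy classes -/

theorem card_conjClasses_perm_le (α : Type*) [Fintype α] [DecidableEq α] :
    Nat.card (ConjClasses (Equiv.Perm α)) ≤ Fintype.card (Nat.Partition (Fintype.card α)) := by
  let f : ConjClasses (Equiv.Perm α) → (Fintype.card α).Partition :=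
    Quotient.lift (fun σ : Equiv.Perm α => σ.partition)
      (fun σ τ h => Equiv.Perm.partition_eq_of_isConj.mp h)
  have hf : Function.Injective f := by
    intro C D hCD
    obtain ⟨σ, rfl⟩ := C.exists_rep
    obtain ⟨τ, rfl⟩ := D.exists_rep
    exact ConjClasses.mk_eq_mk_iff_isConj.mpr (Equiv.Perm.partition_eq_of_isConj.mpr hCD)
  rw [← Nat.card_eq_fintype_card]
  exact Nat.card_le_card_of_injective f hf

theorem card_conjClasses_alt_le (α : Type*) [Fintype α] [DecidableEq α] [Nontrivial α] :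
    Nat.card (ConjClasses (alternatingGroup α)) ≤ 2 * Fintype.card (Nat.Partition (Fintype.card α)) := by
  have h1 := le_index_mul (alternatingGroup α)
  rw [alternatingGroup.index_eq_two] at h1
  exact h1.trans (Nat.mul_le_mul_left _ (card_conjClasses_perm_le α))

/-- **D4** from the bound `k(H) ≤ 2 ^ (k - 1)` for permutation groups of degree `k` (S4197) -/
theorem d4_numeric_of
    (h4197 : ∀ (α : Type) [Fintype α] [DecidableEq α] (S : Subgroup (Equiv.Perm α)),
      Nat.card (ConjClasses S) ≤ 2 ^ (Fintype.card α - 1))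
    {n w : ℕ} (hn : 20 ≤ n) (hw : n ≤ 4 * w) (hw2 : 2 * w < n) {U : Subgroup (Equiv.Perm (Fin n))}
    (W : Finset (Fin n)) (hW : W.card = w) (hU : ∀ g ∈ U, ∀ i ∈ W, g i ∈ W)
    (hUA : U ≤ alternatingGroup (Fin n)) (hA : ∀ g ∈ alternatingGroup (Fin n), (∀ i ∈ W, g i = i) → g ∈ U) :
    Nat.card (ConjClasses U) < n.choose w := by
  classical
  have hU' : ∀ g : U, ∀ i, (g : Equiv.Perm (Fin n)) i ∈ W ↔ i ∈ W := by
    intro g i
    constructor
    · intro h
      have h1 := hU _ (inv_mem g.2) _ h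
      have h2 : ((g : Equiv.Perm (Fin n))⁻¹) ((g : Equiv.Perm (Fin n)) i) = i := by
        rw [← Equiv.Perm.mul_apply, inv_mul_cancel, Equiv.Perm.one_apply]
      rwa [h2] at h1
    · exact hU _ g.2 i
  let φ : U →* Equiv.Perm {i // i ∈ W} :=
    { toFun := fun g => (g : Equiv.Perm (Fin n)).subtypePerm (hU' g)
      map_one' := by ext i; rfl
      map_mul' := fun g h => by ext i; rfl }
  have hφ : ∀ (g : U) (i : {i // i ∈ W}), ((φ g i : {i // i ∈ W}) : Fin n) = (g : Equiv.Perm (Fin n)) i := fun g i => rfl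
  have h1 := le_ker_mul_range φ
  have h2 : Nat.card (ConjClasses φ.range) ≤ 2 ^ (w - 1) := by
    have := h4197 {i // i ∈ W} φ.range
    rwa [Fintype.card_coe, hW] at this
  -- the kernel
  let β := {i : Fin n // i ∉ W}
  have hβ : Fintype.card β = n - w := by
    rw [Fintype.card_subtype_compl, Fintype.card_fin, Fintype.card_coe, hW]
  have hnt : Nontrivial β := by
    rw [← Fintype.one_lt_card_iff_nontrivial, hβ]
    omega
  have hmem : ∀ x : alternatingGroup β, Equiv.Perm.ofSubtype (x : Equiv.Perm β) ∈ U := by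
    intro x
    refine hA _ ?_ ?_
    · rw [Equiv.Perm.mem_alternatingGroup, Equiv.Perm.sign_ofSubtype]
      exact Equiv.Perm.mem_alternatingGroup.1 x.2
    · intro i hi
      exact Equiv.Perm.ofSubtype_apply_of_not_mem _ (not_not.2 hi)
  let ψ : alternatingGroup β →* φ.ker :=
    { toFun := fun x => ⟨⟨Equiv.Perm.ofSubtype (x : Equiv.Perm β), hmem x⟩, by
        rw [MonoidHom.mem_ker]
        refine Equiv.ext fun i => Subtype.ext ?_
        exact Equiv.Perm.ofSubtype_apply_of_not_mem (p := fun i => i ∉ W) (x : Equiv.Perm β) (not_not.2 i.2)⟩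
      map_one' := by
        apply Subtype.ext
        apply Subtype.ext
        exact map_one _
      map_mul' := fun x y => by
        apply Subtype.ext
        apply Subtype.ext
        exact map_mul _ _ _ }
  have hψ : Function.Surjective ψ := by
    rintro ⟨⟨g, hg⟩, hgk⟩
    have hfix : ∀ i ∈ W, g i = i := by
      intro i hi
      have h3 := congrArg (fun f : Equiv.Perm {i // i ∈ W} => ((f ⟨i, hi⟩ : {i // i ∈ W}) : Fin n)) hgk
      exact h3
    have hp1 : ∀ i, g i ∉ W ↔ i ∉ W := fun i => not_congr (hU' ⟨g, hg⟩ i)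
    have hofs : Equiv.Perm.ofSubtype (g.subtypePerm (p := fun i => i ∉ W) hp1) = g := by
      refine Equiv.Perm.ofSubtype_subtypePerm hp1 ?_
      intro i hi hiW
      exact hi (hfix i hiW)
    refine ⟨⟨g.subtypePerm (p := fun i => i ∉ W) hp1, ?_⟩, ?_⟩
    · rw [Equiv.Perm.mem_alternatingGroup, ← Equiv.Perm.sign_ofSubtype, hofs]
      exact Equiv.Perm.mem_alternatingGroup.1 (hUA hg)
    · apply Subtype.ext
      apply Subtype.ext
      exact hofs
  have h3 : Nat.card (ConjClasses φ.ker) ≤ 2 * Fintype.card (Nat.Partition (n - w)) := by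
    have h4 := card_conjClasses_le_of_surjective ψ hψ
    have h5 := card_conjClasses_alt_le β
    rw [hβ] at h5
    exact h4.trans h5
  have h6 : Q (fun n => Fintype.card (Nat.Partition n)) w (n - w) := Q_all pf (by omega) (by omega) (by omega)
  unfold Q at h6
  rw [show w + (n - w) = n by omega] at h6
  obtain ⟨v, rfl⟩ : ∃ v, w = v + 1 := ⟨w - 1, by omega⟩
  rw [Nat.add_sub_cancel] at h2
  calc Nat.card (ConjClasses U) ≤ _ := h1
    _ ≤ (2 * Fintype.card (Nat.Partition (n - (v + 1)))) * 2 ^ v := Nat.mul_le_mul h3 h2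
    _ = 2 ^ (v + 1) * Fintype.card (Nat.Partition (n - (v + 1))) := by rw [pow_succ]; ring
    _ < _ := h6

end Cfsg.Agent.H957.AN.D4
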